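import Cfsg.Agent.Lib.Schur.Cover.Fi22P.Data
import Cfsg.Agent.Lib.TC.G.Fi22

set_option autoImplicit false
set_option maxRecDepth 100000
set_option maxHeartbeats 0

namespace Cfsg.Agent.Lib.Schur.Cover.Fi22P

open Cfsg.Agent.Lib.Schur.CoverP Cfsg.Agent.Lib.PermComp.Kron

theorem ck0 : rangeAll (chkAt 6 61776 9 Cfsg.Agent.Lib.TC.G.Fi22.K.inv tb RJ) (0 * 1000) 1000 = true := by decide +kernel

theorem ck1 : rangeAll (chkAt 6 61776 9 Cfsg.Agent.Lib.TC.G.Fi22.K.inv tb RJ) (1 * 1000) 1000 = true := by decide +kernel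

theorem ck2 : rangeAll (chkAt 6 61776 9 Cfsg.Agent.Lib.TC.G.Fi22.K.inv tb RJ) (2 * 1000) 1000 = true := by decide +kernel

theorem ck3 : rangeAll (chkAt 6 61776 9 Cfsg.Agent.Lib.TC.G.Fi22.K.inv tb RJ) (3 * 1000) 1000 = true := by decide +kernel

theorem ck4 : rangeAll (chkAt 6 61776 9 Cfsg.Agent.Lib.TC.G.Fi22.K.inv tb RJ) (4 * 1000) 1000 = true := by decide +kernel

theorem ck5 : rangeAll (chkAt 6 61776 9 Cfsg.Agent.Lib.TC.G.Fi22.K.inv tb RJ) (5 * 1000) 1000 = true := by decide +kernel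

theorem ck6 : rangeAll (chkAt 6 61776 9 Cfsg.Agent.Lib.TC.G.Fi22.K.inv tb RJ) (6 * 1000) 1000 = true := by decide +kernel

theorem ck7 : rangeAll (chkAt 6 61776 9 Cfsg.Agent.Lib.TC.G.Fi22.K.inv tb RJ) (7 * 1000) 1000 = true := by decide +kernel

end Cfsg.Agent.Lib.Schur.Cover.Fi22P
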